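import Cfsg.Agent.TwoGenTwisted.Tools
import Cfsg.Agent.TwistedLie.E6Tw

/-! `²E₆(q)` is generated by two elements. -/

set_option autoImplicit false
set_option linter.unusedSectionVars false

namespace CfsgLib.TwoGenTwisted.E6

open Cfsg.Lie CfsgLib.Chevalley CfsgLib.TwistedLie CfsgLib.TwistedLie.E6 CfsgLib.TwoGenClassical

local notation "S" => sysE6

variable {K : Type*} [Field K] [Fintype K] {q : ℕ}

local notation "G1" => chevE6.genSubgroup K (e6Words K q)

variable (hq : IsPrimePow q) (hK : Fintype.card K = q ^ 2)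
include hq hK

theorem exists_lin_ne_zero {A B : K} (hB : B ≠ 0) : ∃ t : K, A * t + B * t ^ q ≠ 0 := by
  have hq2 := hq.two_le
  by_contra h
  push Not at h
  let f : Polynomial K := Polynomial.C B * Polynomial.X ^ q + Polynomial.C A * Polynomial.X
  have hdeg : f.natDegree ≤ q := by
    simp only [f]
    compute_degree
    all_goals omega
  have hroot : ∀ t : K, f.eval t = 0 := fun t => by
    simp only [f, Polynomial.eval_add, Polynomial.eval_mul, Polynomial.eval_C, Polynomial.eval_pow,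
      Polynomial.eval_X]
    linear_combination h t
  have hf : f = 0 := Polynomial.eq_zero_of_natDegree_lt_card_of_eval_eq_zero f Function.injective_id hroot (by
    rw [hK]
    nlinarith)
  have h2 := congrArg (fun g : Polynomial K => g.coeff q) hf
  have n2 : q ≠ 1 := by omega
  simp [f, Polynomial.coeff_X_pow, Polynomial.coeff_X, n2.symm] at h2
  exact hB h2

theorem blk_mem (i : Fin 4) : nL S K (blkN i) ∈ G1 := by
  rw [← n_eq hq hK]; exact n_mem' hq hK i

theorem two_generated : ∃ a b : ↥(G1 : Subgroup (GL chevE6.Idx K)),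
    Subgroup.closure ({a, b} : Set ↥(G1 : Subgroup (GL chevE6.Idx K))) = ⊤ := by
  obtain ⟨k, hkgen, hk⟩ := exists_gen (F := K)
  rw [Nat.card_eq_fintype_card, hK] at hk
  have hq2 := hq.two_le
  have hk0 := k.ne_zero
  have hq4 : 4 ≤ q ^ 2 := by nlinarith
  obtain ⟨s0, s1, s2, s3, s4, s5⟩ := simple_eq
  obtain ⟨m0, m1, m2, m3, m4, m5⟩ := neg_eq
  set φ := phi hq hK with hφdef
  have hphi := phi_phi hq hK
  set L1 : List ℕ := [1, 3, 2, 4, 0, 5] with hL1
  have hsplit : nL S K L1 = nL S K [1] * (nL S K [3] * (nL S K [2, 4] * nL S K [0, 5])) := by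
    rw [hL1, show ([1, 3, 2, 4, 0, 5] : List ℕ) = [1] ++ ([3] ++ ([2, 4] ++ [0, 5])) from rfl, nL_append,
      nL_append, nL_append]
  set w := nL S K L1 with hw
  have hwG : w ∈ G1 := by
    rw [hsplit]
    exact mul_mem (blk_mem hq hK 0) (mul_mem (blk_mem hq hK 1) (mul_mem (blk_mem hq hK 2) (blk_mem hq hK 3)))
  set z := tor chevE6 K (Folded.cP φ 0 5 k) with hz
  have hcfix := Folded.cP_mem_fixC graphE6 φ two05 hphi k
  have hzG : z ∈ G1 := TT_mem hq hK (mem_TT hq hK hcfix)
  set P5 : K → GL chevE6.Idx K := Folded.P S φ 0 5 with hP5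
  have hP5G : ∀ t, P5 t ∈ G1 := fun t => (pair_mem hq hK (Or.inl ⟨rfl, rfl⟩) t).1
  refine two_gen_sub (a := P5 1 * w) (b := z) (mul_mem (hP5G _) hwG) hzG ?_
  set H := Subgroup.closure ({P5 1 * w, z} : Set (GL chevE6.Idx K)) with hH
  have hzS : z ∈ H := Subgroup.subset_closure (by simp)
  have hyS : P5 1 * w ∈ H := Subgroup.subset_closure (by simp)
  have hHG : H ≤ G1 := (Subgroup.closure_le _).mpr (Set.pair_subset (mul_mem (hP5G _) hwG) hzG)
  have hfix : ∀ g ∈ G1, sigma hq hK g = g := fun g hg =>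
    (gen_le S K (K := (sigma hq hK).eqLocus (MonoidHom.id _)) (sigma_gen hq hK)) hg
  -- the conjugated torus element
  obtain ⟨d, hd, hdeq⟩ : ∃ d ∈ Folded.fixC φ chevE6 qE, tor chevE6 K d = w * z * w⁻¹ := by
    have hc : ∀ (i : Fin 4) (g : GL chevE6.Idx K), g ∈ TT hq hK →
        nL S K (blkN i) * g * (nL S K (blkN i))⁻¹ ∈ TT hq hK := fun i g hg => by
      rw [← n_eq hq hK]; exact TT_conj hq hK i g hg
    have h4 : nL S K [1] * (nL S K [3] * (nL S K [2, 4] * (nL S K [0, 5] * z * (nL S K [0, 5])⁻¹) *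
        (nL S K [2, 4])⁻¹) * (nL S K [3])⁻¹) * (nL S K [1])⁻¹ ∈ TT hq hK :=
      hc 0 _ (hc 1 _ (hc 2 _ (hc 3 _ (mem_TT hq hK hcfix))))
    obtain ⟨d, hd, hde⟩ := h4
    refine ⟨d, hd, hde.trans ?_⟩
    rw [hsplit]; group
  have hLlt : ∀ j, ∀ i ∈ (List.replicate j L1).flatten, i < chevE6.rank := fun j i hi => by
    obtain ⟨l, hl, hil⟩ := List.mem_flatten.1 hi
    rw [List.eq_of_mem_replicate hl, hL1] at hil
    exact (by decide : ∀ i ∈ [1, 3, 2, 4, 0, 5], i < chevE6.rank) i hil
  set lam : K := (torusVal chevE6 (Folded.cP φ 0 5 k) (chevE6.simple 0) : K) with hlamdef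
  set mu : K := (torusVal chevE6 d (chevE6.simple 0) : K) with hmudef
  have hval : ∀ r, torusVal chevE6 (Folded.cP φ 0 5 k) r =
      k ^ chevE6.cartan 0 r * Folded.uMap φ k ^ chevE6.cartan 5 r := fun r => by
    rw [Folded.cP, torusVal_mul, torusVal_single K _ (show 0 < chevE6.rank by decide),
      torusVal_single K _ (show 5 < chevE6.rank by decide)]
  have hlam : lam = (k : K) ^ 2 := by
    rw [hlamdef, hval, show chevE6.cartan 0 (chevE6.simple 0) = 2 by decide +kernel,
      show chevE6.cartan 5 (chevE6.simple 0) = 0 by decide +kernel]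
    simp
  have hmu : mu = (k : K)⁻¹ := by
    have h42 := torusVal_conj S (hLlt 1) (c := Folded.cP φ 0 5 k) (d := d)
      (by rw [show (List.replicate 1 L1).flatten = L1 by simp, hdeq]) (show 42 < chevE6.nroots by decide)
    rw [show wL chevE6 (List.replicate 1 L1).flatten 42 = chevE6.simple 0 by decide +kernel, hval,
      show chevE6.cartan 0 42 = -1 by decide +kernel, show chevE6.cartan 5 42 = 0 by decide +kernel] at h42
    rw [hmudef, h42]
    simp
  have hφ' : ∀ t, z * P5 t * z⁻¹ = P5 (lam * t) := fun t =>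
    Folded.P_conj S φ two05 graphE6 hcfix t
  have hψ : ∀ t, tor chevE6 K d * P5 t * (tor chevE6 K d)⁻¹ = P5 (mu * t) := fun t =>
    Folded.P_conj S φ two05 graphE6 hd t
  have hcomm : z * tor chevE6 K d = tor chevE6 K d * z := by rw [hz, ← map_mul, ← map_mul, mul_comm]
  have hadd : ∀ a b, P5 a * P5 b = P5 (a + b) := Folded.P_add S φ two05
  have hstart := commutator_trick P5 (fun a b => (hadd a b).symm) H hzS hyS hdeq.symm hcomm hφ' hψ
  have hP0 : P5 0 = 1 := by simp [hP5, Folded.P, Sys.xG_zero]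
  let A : AddSubgroup K :=
    { carrier := {t | P5 t ∈ H}
      zero_mem' := by show P5 0 ∈ H; rw [hP0]; exact one_mem H
      add_mem' := fun {a b} ha hb => by show P5 (a + b) ∈ H; rw [← hadd]; exact mul_mem ha hb
      neg_mem' := fun {a} ha => by
        show P5 (-a) ∈ H
        have : P5 (-a) = (P5 a)⁻¹ := eq_inv_of_mul_eq_one_left (by rw [hadd, neg_add_cancel, hP0])
        rw [this]; exact inv_mem ha }
  have hord : q ^ 2 - 1 ≤ 2 * orderOf lam := by
    rw [← hk, hlam]
    refine Nat.le_of_dvd (Nat.mul_pos two_pos ?_) ?_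
    · refine orderOf_pos_iff.2 (isOfFinOrder_iff_pow_eq_one.2 ⟨Fintype.card K - 1, by rw [hK]; omega,
        FiniteField.pow_card_sub_one_eq_one _ (pow_ne_zero _ hk0)⟩)
    · rw [orderOf_dvd_iff_pow_eq_one, pow_mul, pow_orderOf_eq_one]
  have hmu1 : mu ≠ 1 := by
    intro h
    rw [hmu, inv_eq_one] at h
    rw [h, orderOf_one] at hk
    omega
  have hlam1 : lam ≠ 1 := fun h => by rw [h, orderOf_one] at hord; omega
  have hP : ∀ t, P5 t ∈ H := by
    refine eq_top_of_stable A (s := {lam}) (closure_eq_top_of_order (u := lam)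
        (by rw [hlam]; exact pow_ne_zero _ hk0) fun r hr => ?_)
      (fun u hu t ht => ?_) (c := lam * (1 + mu * -1) - (1 + mu * -1)) hstart ?_
    · rw [Nat.card_eq_fintype_card, hK] at hr
      rcases Nat.lt_or_ge r 2 with h | h
      · omega
      · by_contra hlt
        push Not at hlt
        have h3 : r ^ 2 + 1 ≤ 2 * r := by omega
        nlinarith [Nat.mul_le_mul h h]
    · rw [Set.mem_singleton_iff.1 hu]
      show P5 (lam * t) ∈ H
      rw [← hφ']; exact mul_mem (mul_mem hzS ht) (inv_mem hzS)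
    · rw [show lam * (1 + mu * -1) - (1 + mu * -1) = (lam - 1) * (1 - mu) by ring]
      exact mul_ne_zero (sub_ne_zero.2 hlam1) (sub_ne_zero.2 (Ne.symm hmu1))
  have hwS : w ∈ H := by
    have := mul_mem (inv_mem (hP 1)) hyS
    rwa [inv_mul_cancel_left] at this
  have hrep : ∀ j, nL S K (List.replicate j L1).flatten ∈ H := nL_rep_mem S K hwS
  -- short roots
  have hshort : ∀ (j r s : ℕ) (a b : ℕ) (h : Folded.Two chevE6 pE sgE qE a b) (M : List ℕ)
      (_ : ∀ i ∈ M, i < chevE6.rank) (_ : nL S K M ∈ G1)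
      (_ : wL chevE6 (List.replicate j L1).flatten 56 = r) (_ : wL chevE6 (List.replicate j L1).flatten 36 = s)
      (_ : r = wL chevE6 M (chevE6.simple a) ∨ r = wL chevE6 M (chevE6.simple b))
      (_ : s = wL chevE6 M (chevE6.simple a) ∨ s = wL chevE6 M (chevE6.simple b)),
      ∀ t, nL S K M * Folded.P S φ a b t * (nL S K M)⁻¹ ∈ H := by
    intro j r s a b h M hM hMG hr hs hr' hs'
    refine pair_full S graphE6 φ h hM (hfix _ hMG) hr' hs'
      (fun u => nL S K (List.replicate j L1).flatten * P5 u * (nL S K (List.replicate j L1).flatten)⁻¹)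
      (fun x y hxy => Folded.P_inj S φ two05 (mul_left_cancel (mul_right_cancel hxy)))
      (fun u => mul_mem (mul_mem (hrep j) (hP u)) (inv_mem (hrep j))) (fun u => ?_)
      (fun u => hfix _ (hHG (mul_mem (mul_mem (hrep j) (hP u)) (inv_mem (hrep j)))))
    obtain ⟨c1, -, g1⟩ := nL_conj_sign S K (hLlt j) (show 56 < chevE6.nroots by decide)
    obtain ⟨c2, -, g2⟩ := nL_conj_sign S K (hLlt j) (show 36 < chevE6.nroots by decide)
    refine ⟨c1 * u, c2 * φ u, ?_⟩
    rw [← hr, ← hs, ← g1, ← g2, hP5, Folded.P, s0, s5]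
    group
  have hP24 : ∀ t, Folded.P S φ 2 4 t ∈ H := fun t => by
    have := hshort 11 42 37 2 4 two24 [] (by simp) (by simp [nL]) (by decide +kernel) (by decide +kernel)
      (Or.inl (by decide +kernel)) (Or.inr (by decide +kernel)) t
    simpa [nL] using this
  have hN24 : ∀ t, Folded.N S φ 2 4 t ∈ H := fun t => by
    rw [← neg_neg t, ← Folded.two_conj S φ two24]
    exact hshort 5 34 29 2 4 two24 [2, 4] (by decide) (blk_mem hq hK 2) (by decide +kernel)
      (by decide +kernel) (Or.inr (by decide +kernel)) (Or.inl (by decide +kernel)) (-t)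
  have hN05 : ∀ t, Folded.N S φ 0 5 t ∈ H := fun t => by
    rw [← neg_neg t, ← Folded.two_conj S φ two05]
    exact hshort 6 35 15 0 5 two05 [0, 5] (by decide) (blk_mem hq hK 3) (by decide +kernel)
      (by decide +kernel) (Or.inr (by decide +kernel)) (Or.inl (by decide +kernel)) (-t)
  -- a long root
  obtain ⟨c1, hc1, g1⟩ := nL_conj_sign S K (hLlt 9) (show 56 < chevE6.nroots by decide)
  obtain ⟨c2, hc2, g2⟩ := nL_conj_sign S K (hLlt 9) (show 36 < chevE6.nroots by decide)
  rw [show wL chevE6 (List.replicate 9 L1).flatten 56 = 62 by decide +kernel] at g1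
  rw [show wL chevE6 (List.replicate 9 L1).flatten 36 = 52 by decide +kernel] at g2
  have hQ : Sys.xG S K 62 c1 * Sys.xG S K 52 c2 ∈ H := by
    have := mul_mem (mul_mem (hrep 9) (hP 1)) (inv_mem (hrep 9))
    rw [show P5 1 = Sys.xG S K 56 1 * Sys.xG S K 36 1 by simp [hP5, Folded.P, s0, s5],
      ← MulAut.conj_apply, map_mul] at this
    simpa only [MulAut.conj_apply, g1, g2, mul_one] using this
  set f : K → K := fun t => ((-1 : ℤ) : K) * (t * c2) + ((1 : ℤ) : K) * (t ^ q * c1) with hf
  have hlongval : ∀ t, Sys.xG S K 63 (f t) ∈ H := by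
    intro t
    have o := fun r s (h : orthB chevE6 r s = true) (x y : K) => orth_commute S K h x y
    have ea := conj_of_comm S K (a := 56) (b := 52) (k := 63) (c := -1) (by decide) (by decide) (by decide)
      (by decide +kernel) (by decide +kernel) t c2
    have eb := conj_of_comm S K (a := 36) (b := 62) (k := 63) (c := 1) (by decide) (by decide) (by decide)
      (by decide +kernel) (by decide +kernel) (t ^ q) c1
    have f' : ∀ {g u : GL chevE6.Idx K}, Commute g u → MulAut.conj g u = u := fun h => by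
      rw [MulAut.conj_apply, h.eq, mul_inv_cancel_right]
    have e : P5 t * (Sys.xG S K 62 c1 * Sys.xG S K 52 c2) * (P5 t)⁻¹ =
        Sys.xG S K 62 c1 * Sys.xG S K 52 c2 * Sys.xG S K 63 (f t) := by
      rw [show P5 t = Sys.xG S K 56 t * Sys.xG S K 36 (t ^ q) by
        simp [hP5, Folded.P, s0, s5, hφdef, phi_apply], ← MulAut.conj_apply]
      simp only [map_mul, MulAut.mul_apply, f' (o 36 52 (by decide +kernel) _ _),
        MulAut.conj_apply (Sys.xG S K 36 _) (Sys.xG S K 62 _), eb]
      simp only [f' (o 56 62 (by decide +kernel) _ _), f' (o 56 63 (by decide +kernel) _ _),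
        MulAut.conj_apply (Sys.xG S K 56 _) (Sys.xG S K 52 _), ea]
      rw [hf, ← Sys.xG_add, ← mul_assoc,
        mul_assoc (Sys.xG S K 62 c1) (Sys.xG S K 63 _) (Sys.xG S K 52 c2),
        (o 63 52 (by decide +kernel) _ _).eq]
      simp only [mul_assoc]
      rw [Sys.xG_add, Sys.xG_add, add_comm]
    have := mul_mem (inv_mem hQ) (mul_mem (mul_mem (hP t) hQ) (inv_mem (hP t)))
    rwa [e, inv_mul_cancel_left] at this
  obtain ⟨t0, ht0⟩ := exists_lin_ne_zero hq hK (A := ((-1 : ℤ) : K) * c2) (B := ((1 : ℤ) : K) * c1)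
    (by rcases hc1 with rfl | rfl <;> simp)
  have hc0 : f t0 ≠ 0 := by rw [hf]; convert ht0 using 1; ring
  have hcq : φ (f t0) = f t0 := by
    have := hfix _ (hHG (hlongval t0))
    have e : twistHom K graphE6 φ (Sys.xG S K 63 (f t0)) = Sys.xG S K (pE 63) ((sgE 63 : K) * φ (f t0)) :=
      twistHom_x S K graphE6 _ (show 63 < chevE6.nroots by decide) _
    rw [show pE 63 = 63 by decide +kernel, show sgE 63 = 1 by decide +kernel, Int.cast_one, one_mul,
      ← show sigma hq hK = twistHom K graphE6 φ from rfl, this] at e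
    replace this := e.symm
    exact CfsgLib.TwistedLie.xG_inj S K (by decide) this
  have h63 : ∀ t : K, φ t = t → Sys.xG S K 63 t ∈ H := by
    intro t ht
    have hl : φ (t / f t0) = t / f t0 := by rw [map_div₀, ht, hcq]
    rw [hφdef, phi_apply] at hl
    have : f (t / f t0 * t0) = t := by
      have hlin : ∀ l : K, l ^ q = l → f (l * t0) = l * f t0 := fun l h => by
        simp only [hf, mul_pow, h]; ring
      rw [hlin _ hl, div_mul_cancel₀ _ hc0]
    rw [← this]
    exact hlongval _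
  have hlong : ∀ j r, wL chevE6 (List.replicate j L1).flatten 63 = r →
      ∀ t : K, φ t = t → Sys.xG S K r t ∈ H := by
    intro j r hr t ht
    rw [← hr]
    exact rootIn_transport S K (hLlt j) (hrep j) (by decide) ⟨h63 t ht, h63 (-t) (by rw [map_neg, ht])⟩
  refine gen_le S K ?_
  rintro u (⟨t, ht, r, hr, rfl⟩ | ⟨t, rs, hrs, rfl⟩)
  · rw [← phi_apply hq hK, ← hφdef] at ht
    rw [wG_single]
    simp only [e6p2, e6m2, e6p4, e6m4, List.mem_cons, List.not_mem_nil, or_false] at hr
    rcases hr with rfl | rfl | rfl | rfl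
    · exact hlong 7 46 (by decide +kernel) t ht
    · exact hlong 1 25 (by decide +kernel) t ht
    · exact hlong 8 39 (by decide +kernel) t ht
    · exact hlong 2 32 (by decide +kernel) t ht
  · simp only [e6p1, e6p6, e6m1, e6m6, e6p3, e6p5, e6m3, e6m5, List.mem_cons, List.not_mem_nil,
      or_false] at hrs
    rcases hrs with rfl | rfl | rfl | rfl
    · rw [← s0, ← s5, ← P_eq hq hK]; exact hP t
    · rw [← m0, ← m5, ← s0, ← s5, ← N_eq hq hK]; exact hN05 t
    · rw [← s2, ← s4, ← P_eq hq hK]; exact hP24 t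
    · rw [← m2, ← m4, ← s2, ← s4, ← N_eq hq hK]; exact hN24 t

end CfsgLib.TwoGenTwisted.E6
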