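import Cfsg.Agent.TwoGenTwisted.Tools
import Cfsg.Agent.TwistedLie.D4Tw
import Cfsg.Agent.TwistedLie.D4Main

/-! `³D₄(q)` is generated by two elements. -/

set_option autoImplicit false
set_option linter.unusedSectionVars false

namespace CfsgLib.TwoGenTwisted.D4

open Cfsg.Lie CfsgLib.Chevalley CfsgLib.TwistedLie CfsgLib.TwistedLie.D4 CfsgLib.TwoGenClassical

local notation "S" => sysD4

variable {K : Type*} [Field K] [Fintype K] {q : ℕ}

local notation "G1" => chevD4.genSubgroup K (d4Words K q)

theorem triple_conj {G : Type*} [Group G] {a b c A B C x y z : G} (hcA : Commute c A) (hcB : Commute c B)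
    (hbA : Commute b A) (hbC : Commute b C) (hbz : Commute b z) (haB : Commute a B) (haC : Commute a C)
    (hay : Commute a y) (haz : Commute a z) (hxB : Commute x B) (hxC : Commute x C) (hyC : Commute y C)
    (h1 : a * A * a⁻¹ = A * x) (h2 : b * B * b⁻¹ = B * y) (h3 : c * C * c⁻¹ = C * z) :
    a * b * c * (A * B * C) * (a * b * c)⁻¹ = A * B * C * (x * y * z) := by
  have f : ∀ {g u : G}, Commute g u → MulAut.conj g u = u := fun h => by
    rw [MulAut.conj_apply, h.eq, mul_inv_cancel_right]
  rw [← MulAut.conj_apply]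
  simp only [map_mul, MulAut.mul_apply, f hcA, f hcB, MulAut.conj_apply c C, h3]
  simp only [map_mul, f hbA, f hbC, f hbz, MulAut.conj_apply b B, h2]
  simp only [map_mul, f haB, f haC, f hay, f haz, MulAut.conj_apply a A, h1]
  calc A * x * (B * y) * (C * z) = A * (x * B) * (y * C) * z := by simp only [mul_assoc]
    _ = A * (B * x) * (C * y) * z := by rw [hxB.eq, hyC.eq]
    _ = A * B * (x * C) * (y * z) := by simp only [mul_assoc]
    _ = A * B * (C * x) * (y * z) := by rw [hxC.eq]
    _ = A * B * C * (x * y * z) := by simp only [mul_assoc]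

variable (hq : IsPrimePow q) (hK : Fintype.card K = q ^ 3)
include hq hK

theorem exists_poly_ne_zero {A B C : K} (hC : C ≠ 0) :
    ∃ t : K, A * t + B * t ^ q + C * t ^ (q ^ 2) ≠ 0 := by
  have hq2 := hq.two_le
  by_contra h
  push Not at h
  let f : Polynomial K :=
    Polynomial.C C * Polynomial.X ^ (q ^ 2) + (Polynomial.C B * Polynomial.X ^ q + Polynomial.C A * Polynomial.X)
  have hdeg : f.natDegree ≤ q ^ 2 := by
    have : q ≤ q ^ 2 := Nat.le_self_pow two_ne_zero q
    simp only [f]
    compute_degree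
    all_goals omega
  have hroot : ∀ t : K, f.eval t = 0 := fun t => by
    simp only [f, Polynomial.eval_add, Polynomial.eval_mul, Polynomial.eval_C, Polynomial.eval_pow,
      Polynomial.eval_X]
    linear_combination h t
  have hf : f = 0 := Polynomial.eq_zero_of_natDegree_lt_card_of_eval_eq_zero f Function.injective_id hroot (by
    rw [hK]
    exact hdeg.trans_lt (Nat.pow_lt_pow_right (by omega) (by norm_num)))
  have h2 := congrArg (fun g : Polynomial K => g.coeff (q ^ 2)) hf
  have n1 : q ^ 2 ≠ q := by nlinarith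
  have n2 : q ^ 2 ≠ 1 := by nlinarith
  simp [f, Polynomial.coeff_X_pow, Polynomial.coeff_X, n1, n2.symm] at h2
  exact hC h2

theorem two_generated : ∃ a b : ↥(G1 : Subgroup (GL chevD4.Idx K)),
    Subgroup.closure ({a, b} : Set ↥(G1 : Subgroup (GL chevD4.Idx K))) = ⊤ := by
  obtain ⟨k, hkgen, hk⟩ := exists_gen (F := K)
  rw [Nat.card_eq_fintype_card, hK] at hk
  have hq2 := hq.two_le
  have hk0 := k.ne_zero
  have hqq : q + 4 ≤ q ^ 3 := by
    have : q * (q * q) = q ^ 3 := by ring
    nlinarith
  set L1 : List ℕ := [1, 0, 2, 3] with hL1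
  set w := nL S K L1 with hw
  have hwG : w ∈ G1 := by
    rw [hw, hL1, show ([1, 0, 2, 3] : List ℕ) = [1] ++ [0, 2, 3] from rfl, nL_append]
    exact mul_mem (n2_mem hq hK) (nJ_mem hq hK)
  set z := tor chevD4 K (cJ q k) with hz
  refine two_gen_sub (a := P q 1 * w) (b := z) (mul_mem (P_mem _) hwG) (torJ_mem hq hK k) ?_
  set H := Subgroup.closure ({P q (1 : K) * w, z} : Set (GL chevD4.Idx K)) with hH
  have hzS : z ∈ H := Subgroup.subset_closure (by simp)
  have hyS : P q 1 * w ∈ H := Subgroup.subset_closure (by simp)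
  have hHG : H ≤ G1 := (Subgroup.closure_le _).mpr
    (Set.pair_subset (mul_mem (P_mem _) hwG) (torJ_mem hq hK k))
  -- the conjugated torus element
  set d : ℕ → Kˣ := cJ q k⁻¹ * Pi.mulSingle 1 (torusVal chevD4 (cJ q k⁻¹) 14)⁻¹ with hd
  have hwz : w * z * w⁻¹ = tor chevD4 K d := by
    have e2 : nL S K [1] * tor chevD4 K (cJ q k⁻¹) = tor chevD4 K d * nL S K [1] := by
      rw [show nL S K [1] = Sys.nG S K (chevD4.simple 1) 1 from by simp [nL],
        Sys.nG_tor S K (show 1 < chevD4.rank by decide), simple1]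
    have sJ : ∀ i ∈ [0, 2, 3], ∀ c : ℕ → Kˣ, Sys.nG S K (chevD4.simple i) 1 * tor chevD4 K c =
        tor chevD4 K (c * Pi.mulSingle i (torusVal chevD4 c (chevD4.simple i))⁻¹) *
          Sys.nG S K (chevD4.simple i) 1 := fun i hi c =>
      Sys.nG_tor S K (show i < chevD4.rank from
        (by decide : ∀ i ∈ [0, 2, 3], i < chevD4.rank) i hi) c
    have e1 : nL S K [0, 2, 3] * tor chevD4 K (cJ q k) = tor chevD4 K (cJ q k⁻¹) * nL S K [0, 2, 3] := by
      simp only [nL, List.map_cons, List.map_nil, List.prod_cons, List.prod_nil, mul_one, mul_assoc]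
      rw [sJ 3 (by simp), ← mul_assoc (Sys.nG S K (chevD4.simple 2) 1), sJ 2 (by simp), mul_assoc,
        ← mul_assoc (Sys.nG S K (chevD4.simple 0) 1), sJ 0 (by simp), mul_assoc]
      congr 1
      refine tor_congr4 fun j hj => ?_
      simp only [torusVal_mul, torusVal_single K _ (show 2 < chevD4.rank by decide),
        torusVal_single K _ (show 3 < chevD4.rank by decide), cJ_val, simple0, simple2, simple3,
        show chevD4.cartan 0 18 = 2 by decide +kernel, show chevD4.cartan 2 18 = 0 by decide +kernel,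
        show chevD4.cartan 3 18 = 0 by decide +kernel, show chevD4.cartan 0 13 = 0 by decide +kernel,
        show chevD4.cartan 2 13 = 2 by decide +kernel, show chevD4.cartan 3 13 = 0 by decide +kernel,
        show chevD4.cartan 0 12 = 0 by decide +kernel, show chevD4.cartan 2 12 = 0 by decide +kernel,
        show chevD4.cartan 3 12 = 2 by decide +kernel]
      interval_cases j <;> simp [cJ] <;> group
    rw [mul_inv_eq_iff_eq_mul, hw, hL1, show ([1, 0, 2, 3] : List ℕ) = [1] ++ [0, 2, 3] from rfl,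
      nL_append, hz, mul_assoc, e1, ← mul_assoc, e2, mul_assoc]
  have hcomm : z * tor chevD4 K d = tor chevD4 K d * z := by rw [hz, ← map_mul, ← map_mul, mul_comm]
  set lam : K := (k : K) ^ (2 : ℤ) with hlam
  set mu : K := (k : K) ^ (q ^ 2 + q) * (k : K)⁻¹ with hmu
  have hqqq : ((k : K) ^ (q ^ 2)) ^ q = k := by
    rw [← pow_mul, show q ^ 2 * q = q ^ 3 by ring, ← hK, FiniteField.pow_card]
  have hψ : ∀ t, tor chevD4 K d * P q t * (tor chevD4 K d)⁻¹ = P q (mu * t) := by
    intro t
    have hv : ∀ r, (torusVal chevD4 d r : K) = (k : K) ^ (-chevD4.cartan 0 r) *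
        ((k : K) ^ q) ^ (-chevD4.cartan 2 r) * ((k : K) ^ (q ^ 2)) ^ (-chevD4.cartan 3 r) *
          ((k : K) ^ (q ^ 2 + q + 1)) ^ (-chevD4.cartan 1 r) := fun r => by
      rw [hd, torusVal_mul, torusVal_single K _ (show 1 < chevD4.rank by decide), cJ_val, cJ_val,
        show chevD4.cartan 0 14 = -1 by decide +kernel, show chevD4.cartan 2 14 = -1 by decide +kernel,
        show chevD4.cartan 3 14 = -1 by decide +kernel]
      simp only [Units.val_mul, Units.val_zpow_eq_zpow_val, Units.val_inv_eq_inv_val,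
        Units.val_pow_eq_pow_val, inv_pow, inv_zpow', zpow_neg_one, inv_inv, zpow_neg, pow_add, pow_one]
      simp only [neg_neg, zpow_one, pow_one]
      ring
    simp only [P, conj_mul.symm]
    rw [Sys.tor_conj S K d (by decide), Sys.tor_conj S K d (by decide), Sys.tor_conj S K d (by decide),
      hv, hv, hv, show chevD4.cartan 0 18 = 2 by decide +kernel, show chevD4.cartan 1 18 = -1 by decide +kernel,
      show chevD4.cartan 2 18 = 0 by decide +kernel, show chevD4.cartan 3 18 = 0 by decide +kernel,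
      show chevD4.cartan 0 13 = 0 by decide +kernel, show chevD4.cartan 1 13 = -1 by decide +kernel,
      show chevD4.cartan 2 13 = 2 by decide +kernel, show chevD4.cartan 3 13 = 0 by decide +kernel,
      show chevD4.cartan 0 12 = 0 by decide +kernel, show chevD4.cartan 1 12 = -1 by decide +kernel,
      show chevD4.cartan 2 12 = 0 by decide +kernel, show chevD4.cartan 3 12 = 2 by decide +kernel]
    have p1 : ((k : K) ^ q) ^ q = (k : K) ^ (q ^ 2) := by rw [← pow_mul, sq]
    have p2 : ((k : K) ^ q) ^ (q ^ 2) = k := by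
      rw [← pow_mul, show q * q ^ 2 = q ^ 3 by ring, ← hK, FiniteField.pow_card]
    have p3 : ((k : K) ^ (q ^ 2)) ^ (q ^ 2) = (k : K) ^ q := by
      rw [show ((k : K) ^ (q ^ 2)) ^ (q ^ 2) = (((k : K) ^ (q ^ 2)) ^ q) ^ q by rw [← pow_mul _ q q, sq], hqqq]
    have n1 := pow_ne_zero q hk0
    have n2 := pow_ne_zero (q ^ 2) hk0
    have b1 : ((k : K) ^ (q ^ 2 + q + 1)) = (k : K) ^ (q ^ 2) * (k : K) ^ q * k := by rw [pow_add, pow_add, pow_one]
    rw [b1, hmu]
    simp only [neg_neg, neg_zero, zpow_zero, zpow_one, zpow_neg, zpow_two, mul_one, one_mul, mul_pow, pow_add,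
      inv_pow, p1, p2, p3, hqqq]
    congr 1
    · congr 1 <;> (congr 1; field_simp; try ring)
    · congr 1; field_simp; try ring
  have hφ : ∀ t, z * P q t * z⁻¹ = P q (lam * t) := fun t => P_conj hq hK k t
  have hstart := commutator_trick (P q) (fun a b => (P_comm hq hK a b).symm) H hzS hyS hwz hcomm hφ hψ
  let A : AddSubgroup K :=
    { carrier := {t | P q t ∈ H}
      zero_mem' := by show P q (0 : K) ∈ H; simp [P, hq.two_le, Sys.xG_zero, zero_pow (by omega : q ≠ 0), zero_pow (pow_ne_zero 2 (by omega : q ≠ 0))]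
      add_mem' := fun {a b} ha hb => by
        show P q (a + b) ∈ H; rw [← P_comm hq hK]; exact mul_mem ha hb
      neg_mem' := fun {a} ha => by
        show P q (-a) ∈ H
        have : P q (-a) = (P q a)⁻¹ := eq_inv_of_mul_eq_one_left (by
          rw [P_comm hq hK, neg_add_cancel]; simp [P, Sys.xG_zero, zero_pow (by omega : q ≠ 0), zero_pow (pow_ne_zero 2 (by omega : q ≠ 0))])
        rw [this]; exact inv_mem ha }
  have hlam2 : lam = (k : K) ^ 2 := by rw [hlam]; norm_cast
  have hord2 : q ^ 3 - 1 ≤ 2 * orderOf lam := by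
    rw [← hk, hlam2]
    refine Nat.le_of_dvd (Nat.mul_pos two_pos ?_) ?_
    · refine Nat.pos_of_ne_zero fun h0 => ?_
      have := orderOf_eq_zero_iff.1 h0
      exact this (isOfFinOrder_iff_pow_eq_one.2 ⟨Fintype.card K - 1, by rw [hK]; omega,
        FiniteField.pow_card_sub_one_eq_one _ (pow_ne_zero _ hk0)⟩)
    · rw [orderOf_dvd_iff_pow_eq_one, pow_mul, pow_orderOf_eq_one]
  have hmu1 : mu ≠ 1 := by
    intro h
    rw [hmu, mul_inv_eq_one₀ hk0] at h
    have h2 : (k : K) ^ (q ^ 2 + q - 1) = 1 := by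
      have e : (k : K) ^ (q ^ 2 + q - 1) * k = 1 * k := by
        rw [← pow_succ, Nat.sub_add_cancel (by nlinarith), one_mul, h]
      exact mul_right_cancel₀ hk0 e
    have := Nat.le_of_dvd (by have : 2 ≤ q ^ 2 + q := by nlinarith
                              omega) (orderOf_dvd_of_pow_eq_one h2)
    rw [hk] at this
    have : q ^ 2 + q < q ^ 3 := by nlinarith
    omega
  have hlam1 : lam ≠ 1 := fun h => by rw [h, orderOf_one] at hord2; omega
  have hP : ∀ t, P q t ∈ H := by
    refine eq_top_of_stable A (s := {lam}) (closure_eq_top_of_order (u := lam) (zpow_ne_zero _ hk0) fun r hr => ?_)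
      (fun u hu t ht => ?_) (c := lam * (1 + mu * -1) - (1 + mu * -1)) hstart ?_
    · rw [Nat.card_eq_fintype_card, hK] at hr
      rcases Nat.lt_or_ge r 2 with h | h
      · omega
      · by_contra hlt
        push Not at hlt
        have h3 : r ^ 2 + 1 ≤ 2 * r := by omega
        nlinarith [Nat.mul_le_mul h h]
    · rw [Set.mem_singleton_iff.1 hu]
      show P q (lam * t) ∈ H
      rw [← hφ]; exact mul_mem (mul_mem hzS ht) (inv_mem hzS)
    · rw [show lam * (1 + mu * -1) - (1 + mu * -1) = (lam - 1) * (1 - mu) by ring]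
      exact mul_ne_zero (sub_ne_zero.2 hlam1) (sub_ne_zero.2 (Ne.symm hmu1))
  have hwS : w ∈ H := by
    have := mul_mem (inv_mem (hP 1)) hyS
    rwa [inv_mul_cancel_left] at this
  have hrep : ∀ j, nL S K (List.replicate j L1).flatten ∈ H := nL_rep_mem S K hwS
  have hLlt : ∀ j, ∀ i ∈ (List.replicate j L1).flatten, i < chevD4.rank := fun j i hi => by
    obtain ⟨l, hl, hil⟩ := List.mem_flatten.1 hi
    rw [List.eq_of_mem_replicate hl, hL1] at hil
    exact (by decide : ∀ i ∈ [1, 0, 2, 3], i < chevD4.rank) i hil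
  -- a long root
  obtain ⟨c1, hc1, g1⟩ := nL_conj_sign S K (hLlt 5) (show 18 < chevD4.nroots by decide)
  obtain ⟨c2, hc2, g2⟩ := nL_conj_sign S K (hLlt 5) (show 13 < chevD4.nroots by decide)
  obtain ⟨c3, hc3, g3⟩ := nL_conj_sign S K (hLlt 5) (show 12 < chevD4.nroots by decide)
  rw [show wL chevD4 (List.replicate 5 L1).flatten 18 = 17 by decide +kernel] at g1
  rw [show wL chevD4 (List.replicate 5 L1).flatten 13 = 20 by decide +kernel] at g2
  rw [show wL chevD4 (List.replicate 5 L1).flatten 12 = 21 by decide +kernel] at g3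
  have hQ : Sys.xG S K 17 c1 * Sys.xG S K 20 c2 * Sys.xG S K 21 c3 ∈ H := by
    have := mul_mem (mul_mem (hrep 5) (hP 1)) (inv_mem (hrep 5))
    rw [show P q (1 : K) = Sys.xG S K 18 1 * Sys.xG S K 13 1 * Sys.xG S K 12 1 by
      simp [P], ← MulAut.conj_apply, map_mul, map_mul] at this
    simpa only [MulAut.conj_apply, g1, g2, g3, mul_one] using this
  have hval : ∀ t, Sys.xG S K 22 (((-1 : ℤ) : K) * (t * c1) + ((1 : ℤ) : K) * (t ^ q * c2) +
      ((1 : ℤ) : K) * (t ^ (q ^ 2) * c3)) ∈ H := by
    intro t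
    have o := fun r s (h : orthB chevD4 r s = true) (x y : K) => orth_commute S K h x y
    have e : P q t * (Sys.xG S K 17 c1 * Sys.xG S K 20 c2 * Sys.xG S K 21 c3) * (P q t)⁻¹ =
        Sys.xG S K 17 c1 * Sys.xG S K 20 c2 * Sys.xG S K 21 c3 *
          (Sys.xG S K 22 (((-1 : ℤ) : K) * (t * c1)) * Sys.xG S K 22 (((1 : ℤ) : K) * (t ^ q * c2)) *
            Sys.xG S K 22 (((1 : ℤ) : K) * (t ^ (q ^ 2) * c3))) :=
      triple_conj (o 12 17 (by decide +kernel) _ _) (o 12 20 (by decide +kernel) _ _)
        (o 13 17 (by decide +kernel) _ _) (o 13 21 (by decide +kernel) _ _) (o 13 22 (by decide +kernel) _ _)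
        (o 18 20 (by decide +kernel) _ _) (o 18 21 (by decide +kernel) _ _) (o 18 22 (by decide +kernel) _ _)
        (o 18 22 (by decide +kernel) _ _) (o 22 20 (by decide +kernel) _ _) (o 22 21 (by decide +kernel) _ _)
        (o 22 21 (by decide +kernel) _ _)
        (conj_of_comm S K (by decide) (by decide) (by decide) (by decide +kernel) (by decide +kernel) _ _)
        (conj_of_comm S K (by decide) (by decide) (by decide) (by decide +kernel) (by decide +kernel) _ _)
        (conj_of_comm S K (by decide) (by decide) (by decide) (by decide +kernel) (by decide +kernel) _ _)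
    have := mul_mem (inv_mem hQ) (mul_mem (mul_mem (hP t) hQ) (inv_mem (hP t)))
    rwa [e, inv_mul_cancel_left, Sys.xG_add, Sys.xG_add] at this
  obtain ⟨t0, ht0⟩ := exists_poly_ne_zero hq hK (A := ((-1 : ℤ) : K) * c1) (B := ((1 : ℤ) : K) * c2)
    (C := ((1 : ℤ) : K) * c3) (by rcases hc3 with rfl | rfl <;> simp)
  set c := ((-1 : ℤ) : K) * (t0 * c1) + ((1 : ℤ) : K) * (t0 ^ q * c2) + ((1 : ℤ) : K) * (t0 ^ (q ^ 2) * c3)
    with hc
  have hc0 : c ≠ 0 := by rw [hc]; convert ht0 using 1; ring
  have hfix : ∀ g ∈ G1, sigma hq hK g = g := fun g hg =>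
    (gen_le S K (K := (sigma hq hK).eqLocus (MonoidHom.id _)) (sigma_gen hq hK)) hg
  have hcq : c ^ q = c := by
    have := hfix _ (hHG (hval t0))
    rw [sigma_x hq hK (by decide) (by decide +kernel), show pA 22 = 22 by decide +kernel] at this
    exact CfsgLib.TwistedLie.xG_inj S K (by decide) this
  have h22 : ∀ t : K, t ^ q = t → Sys.xG S K 22 t ∈ H := by
    intro t ht
    rcases eq_or_ne t 0 with rfl | ht0'
    · rw [Sys.xG_zero]; exact one_mem H
    obtain ⟨j, hj⟩ := (Submonoid.mem_powers_iff _ _).1 (hkgen (Units.mk0 (t / c) (div_ne_zero ht0' hc0)))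
    have hfx : (k : K) ^ (j * (q - 1)) = 1 := by
      rw [pow_mul, ← Units.val_pow_eq_pow_val, hj, Units.val_mk0]
      apply mul_right_cancel₀ (div_ne_zero ht0' hc0)
      rw [← pow_succ, Nat.sub_add_cancel (by omega), one_mul, div_pow, ht, hcq]
    have hdv := orderOf_dvd_of_pow_eq_one hfx
    rw [hk] at hdv
    have hfac : q ^ 3 - 1 = (q ^ 2 + q + 1) * (q - 1) := by
      obtain ⟨u, rfl⟩ : ∃ u, q = u + 1 := ⟨q - 1, by omega⟩
      simp only [Nat.add_sub_cancel]
      rw [show (u + 1) ^ 3 = ((u + 1) ^ 2 + (u + 1) + 1) * u + 1 by ring, Nat.add_sub_cancel]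
    rw [hfac] at hdv
    obtain ⟨i, rfl⟩ := Nat.dvd_of_mul_dvd_mul_right (by omega) hdv
    have hN : ∀ i : ℕ, Sys.xG S K 22 (((k : K) ^ (q ^ 2 + q + 1)) ^ i * c) ∈ H := by
      intro i
      induction i with
      | zero => rw [pow_zero, one_mul]; exact hval t0
      | succ i ih =>
        have := mul_mem (mul_mem hzS ih) (inv_mem hzS)
        rw [hz, Sys.tor_conj S K _ (by decide), cJ_at k 22 1 1 1 (by decide +kernel) (by decide +kernel)
          (by decide +kernel), zpow_one, zpow_one, zpow_one] at this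
        convert this using 2
        rw [pow_succ, pow_add, pow_add, pow_one]; ring
    have := hN i
    rwa [← pow_mul, ← Units.val_pow_eq_pow_val, hj, Units.val_mk0, div_mul_cancel₀ _ hc0] at this
  have hlong : ∀ r, r = 14 ∨ r = 9 → ∀ t : K, t ^ q = t → Sys.xG S K r t ∈ H := by
    intro r hr t ht
    have hpair := And.intro (h22 t ht) (h22 (-t) (by rw [negq hq hK, ht]))
    rcases hr with rfl | rfl
    · have := rootIn_transport S K (hLlt 4) (hrep 4) (show 22 < chevD4.nroots by decide) hpair
      rwa [show wL chevD4 (List.replicate 4 L1).flatten 22 = 14 by decide +kernel] at this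
    · have := rootIn_transport S K (hLlt 1) (hrep 1) (show 22 < chevD4.nroots by decide) hpair
      rwa [show wL chevD4 (List.replicate 1 L1).flatten 22 = 9 by decide +kernel] at this
  have hn2 : nL S K [1] ∈ H := by
    have h1 : (-1 : K) ^ q = -1 := by rw [negq hq hK, one_pow]
    simp only [nL, List.map_cons, List.map_nil, List.prod_singleton, simple1, Sys.nG_eq, neg14, inv_one]
    exact mul_mem (mul_mem (hlong 14 (Or.inl rfl) _ (one_pow q)) (hlong 9 (Or.inr rfl) _ h1))
      (hlong 14 (Or.inl rfl) _ (one_pow q))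
  have hnJ : nL S K [0, 2, 3] ∈ H := by
    have := mul_mem (inv_mem hn2) hwS
    rwa [hw, hL1, show ([1, 0, 2, 3] : List ℕ) = [1] ++ [0, 2, 3] from rfl, nL_append,
      inv_mul_cancel_left] at this
  have hNeg : ∀ t, N q t ∈ H := by
    intro t
    obtain ⟨a, ha, ea⟩ : ∃ a : K, a = -t ∧ True := ⟨-t, rfl, trivial⟩
    have key : nL S K [0, 2, 3] * P q a * (nL S K [0, 2, 3])⁻¹ = N q t := by
      have hn := fun i (hi : i < chevD4.rank) (u : K) => nG_conj_self S K hi u
      have c02 := comm_n_orth S K (show 18 < chevD4.nroots by decide) (show orthPairB chevD4 18 13 = true by decide +kernel)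
      have c03 := comm_n_orth S K (show 18 < chevD4.nroots by decide) (show orthPairB chevD4 18 12 = true by decide +kernel)
      have c20 := comm_n_orth S K (show 13 < chevD4.nroots by decide) (show orthPairB chevD4 13 18 = true by decide +kernel)
      have c23 := comm_n_orth S K (show 13 < chevD4.nroots by decide) (show orthPairB chevD4 13 12 = true by decide +kernel)
      have c30 := comm_n_orth S K (show 12 < chevD4.nroots by decide) (show orthPairB chevD4 12 18 = true by decide +kernel)
      have c32 := comm_n_orth S K (show 12 < chevD4.nroots by decide) (show orthPairB chevD4 12 13 = true by decide +kernel)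
      have f : ∀ {g u : GL chevD4.Idx K}, Commute g u → MulAut.conj g u = u := fun h => by
        rw [MulAut.conj_apply, h.eq, mul_inv_cancel_right]
      have h0 := hn 0 (by decide) a
      have h2 := hn 2 (by decide) (a ^ q)
      have h3 := hn 3 (by decide) (a ^ (q ^ 2))
      rw [simple0, neg18] at h0
      rw [simple2, neg13] at h2
      rw [simple3, neg12] at h3
      have m02 : ∀ u, Commute (Sys.nG S K 18 1) (Sys.xG S K 10 u) := fun u => neg13 ▸ (c02 u).2
      have m03 : ∀ u, Commute (Sys.nG S K 18 1) (Sys.xG S K 11 u) := fun u => neg12 ▸ (c03 u).2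
      have m23 : ∀ u, Commute (Sys.nG S K 13 1) (Sys.xG S K 11 u) := fun u => neg12 ▸ (c23 u).2
      simp only [nL, List.map_cons, List.map_nil, List.prod_cons, List.prod_nil, mul_one, simple0, simple2,
        simple3, P, N]
      rw [← MulAut.conj_apply]
      simp only [map_mul, MulAut.mul_apply, f (c30 _).1, f (c32 _).1, MulAut.conj_apply (Sys.nG S K 12 1), h3]
      simp only [map_mul, f (c20 _).1, f (m23 _), MulAut.conj_apply (Sys.nG S K 13 1), h2]
      simp only [map_mul, f (m02 _), f (m03 _), MulAut.conj_apply (Sys.nG S K 18 1), h0]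
      rw [ha, negq hq hK, negq2 hq hK, neg_neg, neg_neg, neg_neg]
    rw [← key]
    exact mul_mem (mul_mem hnJ (hP a)) (inv_mem hnJ)
  refine gen_le S K ?_
  rintro u (⟨t, ht, r, hr, rfl⟩ | ⟨t, rs, hrs, rfl⟩)
  · rw [wG_single]
    simp only [d4p2, d4m2, List.mem_cons, List.not_mem_nil, or_false] at hr
    exact hlong r hr t ht
  · simp only [List.mem_cons, List.not_mem_nil, or_false] at hrs
    rcases hrs with rfl | rfl
    · rw [wG_P]; exact hP t
    · rw [wG_N]; exact hNeg t

end CfsgLib.TwoGenTwisted.D4
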